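import Cfsg.Agent.ExtraFpf.Module
import Cfsg.Agent.CoprimeAction.Basic
import Cfsg.Agent.RankTwoAut.Basic

/-!
Frobenius groups with complement of prime order `p` on a module of dimension `p`: the kernel acts abelianly.
-/

set_option autoImplicit false
set_option linter.style.haveILetI false

namespace CfsgLib.PrimeAction

open scoped commutatorElement TensorProduct

/-- In dimension `p` a central subgroup permuted without fixed points forces commutativity. -/
theorem comm_of_dim {F W : Type*} [Field F] [IsAlgClosed F] [AddCommGroup W] [Module F W] [FiniteDimensional F W]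
    {p : ℕ} (hp : p.Prime) (hdim : Module.finrank F W = p) {Γ : Type*} [Group Γ] [Finite Γ]
    (ρ : Γ →* Module.End F W) (Z : Subgroup Γ) [Fintype Z] (hZc : Z ≤ Subgroup.center Γ)
    (hZF : ((Fintype.card Z : ℕ) : F) ≠ 0) (hsum : ∑ z : Z, ρ z = 0) (σ : MulAut Γ) (hσr : σ ^ p = 1)
    (hσZ : ∀ z ∈ Z, σ z ∈ Z) (hfpf : ∀ z ∈ Z, σ z = z → z = 1) (X : Module.End F W) (hXp : X ^ p = 1)
    (hX : ∀ a : Γ, X * ρ a = ρ (σ a) * X) (a b : Γ) : ρ a * ρ b = ρ b * ρ a := by
  classical
  haveI : Nontrivial W := Module.nontrivial_of_finrank_pos (R := F) (by rw [hdim]; exact hp.pos)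
  -- a common eigenvector
  let S : Set (Submodule F W) := {U | U ≠ ⊥ ∧ ∀ z ∈ Z, ∀ u ∈ U, ρ z u ∈ U}
  obtain ⟨U, ⟨hU0, hUinv⟩, hUmin⟩ := (wellFounded_lt (α := Submodule F W)).has_min S
    ⟨⊤, top_ne_bot, fun _ _ _ _ => trivial⟩
  haveI : Nontrivial U := Submodule.nontrivial_iff_ne_bot.2 hU0
  have hscal : ∀ z : Z, ∃ c : F, ∀ u ∈ U, ρ z u = c • u := by
    rintro ⟨z, hz⟩
    obtain ⟨c, hc⟩ := Module.End.exists_eigenvalue (K := F) (V := U) ((ρ z).restrict (hUinv z hz))
    obtain ⟨w, hw, hw0⟩ := Submodule.exists_mem_ne_zero_of_ne_bot hc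
    let E : Submodule F W := U ⊓ Module.End.eigenspace (ρ z) c
    have hwE : (w : W) ∈ E := ⟨w.2, Module.End.mem_eigenspace_iff.2 (congrArg Subtype.val (Module.End.mem_eigenspace_iff.1 hw))⟩
    have hE : E ∈ S := by
      refine ⟨fun h => hw0 (Subtype.ext ((Submodule.mem_bot F).1 (h ▸ hwE))), fun y hy u hu => ⟨hUinv y hy u hu.1, ?_⟩⟩
      refine Module.End.mem_eigenspace_iff.2 ?_
      rw [← Module.End.mul_apply, ← map_mul, Subgroup.mem_center_iff.1 (hZc hy) z, map_mul, Module.End.mul_apply,
        Module.End.mem_eigenspace_iff.1 hu.2, map_smul]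
    refine ⟨c, fun u hu => ?_⟩
    have : E = U := (lt_or_eq_of_le (inf_le_left : E ≤ U)).resolve_left (hUmin E hE)
    exact Module.End.mem_eigenspace_iff.1 ((this.symm ▸ hu : u ∈ E)).2
  choose χ hχ using hscal
  obtain ⟨v, hvU, hv0⟩ := Submodule.exists_mem_ne_zero_of_ne_bot hU0
  have hval : ∀ z : Z, ρ z v = χ z • v := fun z => hχ z v hvU
  have hmul : ∀ z w : Z, χ (z * w) = χ z * χ w := fun z w => smul_left_injective F hv0 (by
    show χ (z * w) • v = (χ z * χ w) • v
    rw [← hval, Subgroup.coe_mul, map_mul, Module.End.mul_apply, hval, map_smul, hval, smul_smul, mul_comm])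
  have hone : χ 1 = 1 := smul_left_injective F hv0 (by
    show χ 1 • v = (1 : F) • v
    rw [← hval, Subgroup.coe_one, map_one, one_smul]; rfl)
  have hnt : ∃ z : Z, χ z ≠ 1 := by
    by_contra hc
    push Not at hc
    have h := LinearMap.congr_fun hsum v
    simp only [LinearMap.sum_apply, hval, hc, one_smul, Finset.sum_const, Finset.card_univ, LinearMap.zero_apply] at h
    rw [← Nat.cast_smul_eq_nsmul F, smul_eq_zero] at h
    exact hv0 (h.resolve_left hZF)
  -- powers
  have hXi : ∀ (i : ℕ) (a : Γ), X ^ i * ρ a = ρ ((σ ^ i) a) * X ^ i := by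
    intro i
    induction i with
    | zero => simp
    | succ i ih =>
      intro a
      rw [pow_succ' X, mul_assoc, ih, ← mul_assoc, hX, mul_assoc, ← pow_succ' X, ← MulAut.mul_apply, ← pow_succ']
  have hσiZ : ∀ (i : ℕ), ∀ z ∈ Z, (σ ^ i) z ∈ Z := by
    intro i
    induction i with
    | zero => simp
    | succ i ih => intro z hz; rw [pow_succ', MulAut.mul_apply]; exact hσZ _ (ih z hz)
  let τ : ℕ → Z → Z := fun i z => ⟨(σ ^ i) z, hσiZ i z z.2⟩
  have hinj : ∀ i, Function.Injective (τ i) := fun i z w h => Subtype.ext ((σ ^ i).injective (congrArg Subtype.val h))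
  have hbij : ∀ i, Function.Bijective (τ i) := fun i => Finite.injective_iff_bijective.1 (hinj i)
  have hnofix : ∀ d : ℕ, ¬ p ∣ d → ¬ ∀ z : Z, χ (τ d z) = χ z := by
    intro d hd h
    obtain ⟨k, hk⟩ := Nat.exists_mul_mod_eq_one_of_coprime ((hp.coprime_iff_not_dvd.2 hd).symm) hp.one_lt
    have hdk : ∀ z : Z, χ (τ (d * k) z) = χ z := by
      clear hk
      induction k with
      | zero => intro z; exact congrArg χ (Subtype.ext (by simp [τ]))
      | succ k ih =>
        intro z
        rw [← ih z, ← h (τ (d * k) z)]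
        congr 1
        refine Subtype.ext ?_
        show (σ ^ (d * (k + 1))) (z : Γ) = (σ ^ d) ((σ ^ (d * k)) (z : Γ))
        rw [← MulAut.mul_apply, ← pow_add]; congr 2; ring
    have hσk : σ ^ (d * k) = σ := by
      rw [← Nat.div_add_mod (d * k) p, hk.2, pow_add, pow_mul, hσr, one_pow, one_mul, pow_one]
    let g : Z → Z := fun z => z⁻¹ * τ 1 z
    have hg : Function.Injective g := fun z w hzw => by
      have h1 : ((z : Γ))⁻¹ * σ z = ((w : Γ))⁻¹ * σ w := by simpa [g, τ] using congrArg Subtype.val hzw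
      have h2 := hfpf ((w : Γ) * (z : Γ)⁻¹) (Z.mul_mem w.2 (Z.inv_mem z.2)) (by
        rw [map_mul, map_inv, show σ (z : Γ) = (z : Γ) * ((w : Γ)⁻¹ * σ w) by rw [← h1, mul_inv_cancel_left]]
        group)
      exact (Subtype.ext (mul_inv_eq_one.1 h2)).symm
    obtain ⟨z, hz⟩ := hnt
    obtain ⟨u, rfl⟩ := (Finite.injective_iff_surjective.1 hg) z
    refine hz ?_
    show χ (u⁻¹ * τ 1 u) = 1
    have e : χ (τ 1 u) = χ u := by
      rw [← hdk u]; congr 1; refine Subtype.ext ?_
      show (σ ^ 1) (u : Γ) = (σ ^ (d * k)) (u : Γ)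
      rw [hσk, pow_one]
    rw [hmul, e, ← hmul, inv_mul_cancel, hone]
  let w : Fin p → W := fun i => (X ^ (i : ℕ)) v
  have hw0 : ∀ i, w i ≠ 0 := fun i h => hv0 (by
    have := congrArg (X ^ (p - (i : ℕ))) h
    rwa [map_zero, ← Module.End.mul_apply, ← pow_add, Nat.sub_add_cancel i.2.le, hXp, Module.End.one_apply] at this)
  have hweig : ∀ (i : Fin p) (z : Z), ρ (τ i z) (w i) = χ z • w i := fun i z => by
    show ρ ((σ ^ (i : ℕ)) z) ((X ^ (i : ℕ)) v) = _
    rw [← Module.End.mul_apply, ← hXi, Module.End.mul_apply, hval, map_smul]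
  let ψ : Fin p → Z → F := fun i z => χ ((Equiv.ofBijective _ (hbij i)).symm z)
  have hψ : ∀ (i : Fin p) (z : Z), ρ z (w i) = ψ i z • w i := fun i z => by
    have := hweig i ((Equiv.ofBijective _ (hbij i)).symm z)
    rwa [show τ i ((Equiv.ofBijective _ (hbij i)).symm z) = z from
      (Equiv.ofBijective _ (hbij i)).apply_symm_apply z] at this
  have hψne : ∀ i j : Fin p, i ≠ j → ∃ z : Z, ψ i z ≠ ψ j z := by
    suffices H : ∀ i j : Fin p, (i : ℕ) < (j : ℕ) → ∃ z : Z, ψ i z ≠ ψ j z by
      intro i j hij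
      rcases Nat.lt_or_ge (i : ℕ) j with h | h
      · exact H i j h
      · obtain ⟨z, hz⟩ := H j i (lt_of_le_of_ne h fun e => hij (Fin.ext e.symm))
        exact ⟨z, hz.symm⟩
    intro i j hij
    by_contra hc
    push Not at hc
    refine hnofix ((j : ℕ) - (i : ℕ)) (fun hd => ?_) fun z => ?_
    · have := Nat.le_of_dvd (by omega) hd
      have := j.2
      omega
    · have h := hc (τ j z)
      simp only [ψ] at h
      have e1 : (Equiv.ofBijective _ (hbij (j : ℕ))).symm (τ j z) = z := Equiv.ofBijective_symm_apply_apply _ _ _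
      rw [e1] at h
      rw [← h]
      congr 1
      rw [Equiv.eq_symm_apply]
      refine Subtype.ext ?_
      show (σ ^ (i : ℕ)) ((σ ^ ((j : ℕ) - i)) (z : Γ)) = (σ ^ (j : ℕ)) (z : Γ)
      rw [← MulAut.mul_apply, ← pow_add, Nat.add_sub_cancel' hij.le]
  have key : ∀ (s : Finset (Fin p)) (c : Fin p → F), ∑ i ∈ s, c i • w i = 0 → ∀ i ∈ s, c i = 0 := by
    intro s
    induction s using Finset.induction_on with
    | empty => intro c _ i hi; exact absurd hi (Finset.notMem_empty i)
    | insert i0 s hi0 ih =>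
      intro c hc
      have hrest : ∀ i ∈ s, c i = 0 := by
        intro i hi
        obtain ⟨z, hz⟩ := hψne i i0 (fun e => hi0 (e ▸ hi))
        have h1 := ih (fun j => c j * (ψ j z - ψ i0 z)) (by
          have h2 := congrArg (ρ z) hc
          rw [map_zero, map_sum] at h2
          simp only [map_smul, hψ, Finset.sum_insert hi0] at h2
          rw [Finset.sum_insert hi0] at hc
          have h3 : ∑ j ∈ s, (c j * (ψ j z - ψ i0 z)) • w j =
              (∑ j ∈ s, c j • ψ j z • w j) - ψ i0 z • ∑ j ∈ s, c j • w j := by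
            rw [Finset.smul_sum, ← Finset.sum_sub_distrib]
            exact Finset.sum_congr rfl fun j _ => by module
          rw [h3, eq_neg_of_add_eq_zero_right hc, eq_neg_of_add_eq_zero_right h2]
          module) i hi
        exact (mul_eq_zero.1 h1).resolve_right (sub_ne_zero.2 hz)
      intro i hi
      rcases Finset.mem_insert.1 hi with rfl | hi
      · rw [Finset.sum_insert hi0, Finset.sum_eq_zero (fun j hj => by rw [hrest j hj, zero_smul]), add_zero,
          smul_eq_zero] at hc
        exact hc.resolve_right (hw0 _)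
      · exact hrest i hi
  have hli : LinearIndependent F w := Fintype.linearIndependent_iff.2 fun c hc i => key Finset.univ c hc i (Finset.mem_univ i)
  haveI : Nonempty (Fin p) := ⟨⟨0, hp.pos⟩⟩
  let B := basisOfLinearIndependentOfCardEqFinrank hli (by rw [Fintype.card_fin, hdim])
  have hB : ∀ i, B i = w i := fun i => by simp [B]
  have hdiag : ∀ (g : Γ) (i : Fin p), ∃ c : F, ρ g (w i) = c • w i := by
    intro g i
    refine ⟨B.repr (ρ g (w i)) i, ?_⟩
    have hrep : ρ g (w i) = ∑ j, B.repr (ρ g (w i)) j • w j := by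
      conv_lhs => rw [← B.sum_repr (ρ g (w i))]
      simp [hB]
    conv_lhs => rw [hrep]
    refine Finset.sum_eq_single i (fun j _ hj => ?_) (fun h => absurd (Finset.mem_univ i) h)
    obtain ⟨z, hz⟩ := hψne j i hj
    have h1 : ρ z (ρ g (w i)) = ψ i z • ρ g (w i) := by
      rw [← Module.End.mul_apply, ← map_mul, ← Subgroup.mem_center_iff.1 (hZc z.2) g, map_mul, Module.End.mul_apply,
        hψ, map_smul]
    have h0 := key Finset.univ (fun j => B.repr (ρ g (w i)) j * (ψ j z - ψ i z)) (by
      have e1 : ρ z (ρ g (w i)) = ∑ j, B.repr (ρ g (w i)) j • ψ j z • w j := by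
        conv_lhs => rw [hrep]
        simp [map_sum, hψ]
      have e2 : ψ i z • ρ g (w i) = ∑ j, ψ i z • B.repr (ρ g (w i)) j • w j := by
        conv_lhs => rw [hrep]
        rw [Finset.smul_sum]
      rw [← sub_eq_zero.2 h1, e1, e2, ← Finset.sum_sub_distrib]
      exact Finset.sum_congr rfl fun j _ => by module) j (Finset.mem_univ j)
    rw [(mul_eq_zero.1 h0).resolve_right (sub_ne_zero.2 hz), zero_smul]
  refine B.ext fun i => ?_
  rw [hB]
  obtain ⟨ca, hca⟩ := hdiag a i
  obtain ⟨cb, hcb⟩ := hdiag b i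
  rw [Module.End.mul_apply, Module.End.mul_apply, hcb, map_smul, hca, map_smul, hcb, smul_comm]

open scoped IsMulCommutative in
/-- The kernel of a Frobenius group acting irreducibly in dimension `p` acts as an abelian group. -/
theorem commutator_le_ker {t p : ℕ} [Fact t.Prime] (hp : p.Prime) (htp : t ≠ p) {V : Type*} [CommGroup V] [Finite V]
    (hexp : ∀ v : V, v ^ t = 1) (hcard : Nat.card V = t ^ p) {B : Type*} [Group B] [Finite B]
    (hB : ¬ t ∣ Nat.card B) (f : B →* MulAut V) (K R : Subgroup B) [K.Normal] [Group.IsNilpotent K]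
    (hR : Nat.card R = p) (hKco : (Nat.card K).Coprime p) (hfix : K ⊓ Subgroup.centralizer (R : Set B) = ⊥)
    (hsup : K ⊔ R = ⊤)
    (hirr : ∀ W : Subgroup V, (∀ b : B, ∀ w ∈ W, f b w ∈ W) → W = ⊥ ∨ W = ⊤) :
    ⁅K, K⁆ ≤ f.ker := by
  classical
  haveI := Fact.mk hp
  set Γ := K.map f with hΓ
  haveI : Finite (MulAut V) := Finite.of_injective (fun e : MulAut V => (e : V → V)) DFunLike.coe_injective
  haveI : Group.IsNilpotent Γ := Group.nilpotent_of_surjective (f.subgroupMap K) (f.subgroupMap_surjective K)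
  suffices hc : ∀ a b : Γ, a * b = b * a by
    rw [Subgroup.commutator_le]
    intro a ha b hb
    rw [MonoidHom.mem_ker, map_commutatorElement, commutatorElement_eq_one_iff_mul_comm]
    exact congrArg Subtype.val (hc ⟨f a, a, ha, rfl⟩ ⟨f b, b, hb, rfl⟩)
  rcases subsingleton_or_nontrivial Γ with hs | hnt
  · exact fun a b => Subsingleton.elim _ _
  obtain ⟨x, hx1⟩ : ∃ x : R, x ≠ 1 := by
    haveI : Nontrivial R := Finite.one_lt_card_iff_nontrivial.1 (hR ▸ hp.one_lt)
    exact exists_ne 1
  have hgen : R = Subgroup.zpowers (x : B) := by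
    refine (Subgroup.eq_of_le_of_card_ge (Subgroup.zpowers_le.2 x.2) ?_).symm
    rw [Nat.card_zpowers, Subgroup.orderOf_coe,
      orderOf_eq_prime (show x ^ p = 1 by rw [← hR]; exact pow_card_eq_one') hx1, hR]
  have hxp : (x : B) ^ p = 1 := by rw [← hR, ← SubgroupClass.coe_pow, pow_card_eq_one', OneMemClass.coe_one]
  have hnorm : ∀ g : MulAut V, g ∈ Γ → f x * g * (f x)⁻¹ ∈ Γ := by
    rintro _ ⟨k, hk, rfl⟩
    exact ⟨x * k * (x : B)⁻¹, (inferInstance : K.Normal).conj_mem k hk x, by simp⟩
  have hfxN : f x ∈ Subgroup.normalizer (Γ : Set (MulAut V)) := by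
    rw [Subgroup.mem_normalizer_iff_map_conj_eq]
    refine Subgroup.eq_of_le_of_card_ge ?_ (Subgroup.card_map_of_injective (MulAut.conj (f x)).injective).ge
    rintro _ ⟨g, hg, rfl⟩
    exact hnorm g hg
  let σ : MulAut Γ := Γ.normalizerMonoidHom ⟨f x, hfxN⟩
  have hσapp : ∀ g : Γ, ((σ g : Γ) : MulAut V) = f x * g * (f x)⁻¹ := fun g => rfl
  have hσr : σ ^ p = 1 := by
    show (Γ.normalizerMonoidHom ⟨f x, hfxN⟩) ^ p = 1
    rw [← map_pow]
    convert map_one Γ.normalizerMonoidHom
    exact Subtype.ext (show (f x) ^ p = 1 by rw [← map_pow, hxp, map_one])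
  have hfpf : ∀ g : Γ, σ g = g → g = 1 := by
    intro g hg
    obtain ⟨k, hk, hkg⟩ := g.2
    set L := K ⊓ f.ker
    obtain ⟨n, hn, hnk⟩ := CfsgLib.CoprimeAction.exists_mem_centralizer (A := R) (N := L)
      (by rw [Subgroup.normalizer_eq_top]; exact le_top)
      (by rw [hR]; exact (hKco.coprime_dvd_left (Subgroup.card_dvd_of_le inf_le_left)).symm)
      (Or.inl (by
        haveI : IsCyclic R := isCyclic_of_prime_card hR
        letI : CommGroup R := IsCyclic.commGroup
        infer_instance)) (k := k) (fun a ha => by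
        have hc : ∀ a ∈ R, f a * f k * (f a)⁻¹ = f k := by
          intro a ha
          have h1 : f x * f k * (f x)⁻¹ = f k := by rw [hkg]; exact (hσapp g).symm.trans (congrArg Subtype.val hg)
          obtain ⟨i, rfl⟩ := Subgroup.mem_zpowers_iff.1 (hgen ▸ ha)
          rw [map_zpow, mul_inv_eq_iff_eq_mul]
          exact (Commute.zpow_left (mul_inv_eq_iff_eq_mul.1 h1 : Commute (f x) (f k)) i).eq
        refine ⟨K.mul_mem ((inferInstance : K.Normal).conj_mem k hk a) (K.inv_mem hk), MonoidHom.mem_ker.2 ?_⟩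
        rw [map_mul, map_mul, map_mul, map_inv, map_inv, hc a ha, mul_inv_cancel])
    have h1 : n * k ∈ K ⊓ Subgroup.centralizer (R : Set B) := ⟨K.mul_mem hn.1 hk, hnk⟩
    rw [hfix, Subgroup.mem_bot] at h1
    refine Subtype.ext ?_
    rw [← hkg, eq_inv_of_mul_eq_one_right h1, map_inv, MonoidHom.mem_ker.1 hn.2, inv_one]; rfl
  set Z := Subgroup.center Γ with hZ
  haveI : Fintype Z := Fintype.ofFinite Z
  have hZne : Z ≠ ⊥ := Group.IsNilpotent.center_ne_bot Γ
  have hσZ : ∀ z ∈ Z, σ z ∈ Z := fun z hz =>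
    Subgroup.characteristic_iff_map_le.1 (inferInstance : (Subgroup.center Γ).Characteristic) σ ⟨z, hz, rfl⟩
  -- no fixed points of the centre
  let W0 : Subgroup V :=
    { carrier := {v | ∀ z : Z, ((z : Γ) : MulAut V) v = v}
      one_mem' := fun z => map_one _
      mul_mem' := fun {a b} ha hb z => by rw [map_mul, ha z, hb z]
      inv_mem' := fun {a} ha z => by rw [map_inv, ha z] }
  have hW0 : W0 = ⊥ := by
    refine (hirr W0 ?_).resolve_right fun h => ?_
    · have hK' : ∀ k ∈ K, ∀ w ∈ W0, f k w ∈ W0 := fun k hk w hw z => by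
        rw [← MulAut.mul_apply, show ((z : Γ) : MulAut V) * f k = f k * ((z : Γ) : MulAut V) from
          (congrArg Subtype.val (Subgroup.mem_center_iff.1 z.2 ⟨f k, k, hk, rfl⟩)).symm, MulAut.mul_apply, hw z]
      intro b
      obtain ⟨k, hk, r, hr, rfl⟩ := Subgroup.mem_sup_of_normal_left.1 (show b ∈ K ⊔ R by rw [hsup]; trivial)
      intro w hw
      rw [map_mul, MulAut.mul_apply]
      refine hK' k hk _ ?_
      obtain ⟨i, rfl⟩ := Subgroup.mem_zpowers_iff.1 (hgen ▸ hr)
      have hx' : ∀ w ∈ W0, f x w ∈ W0 := by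
        intro w hw z
        obtain ⟨u, hu⟩ := (Finite.injective_iff_surjective.1
          (show Function.Injective (fun u : Z => (⟨σ u, hσZ u u.2⟩ : Z)) from
            fun u u' h => Subtype.ext (σ.injective (congrArg Subtype.val h)))) z
        rw [← hu]
        show ((σ (u : Γ) : Γ) : MulAut V) (f x w) = f x w
        rw [hσapp, MulAut.mul_apply, MulAut.mul_apply, MulAut.inv_apply_self, hw u]
      obtain ⟨n, hn⟩ := (isOfFinOrder_of_finite (x : B)).exists_pow_eq_one
      have hpow : ∀ j : ℕ, ∀ w ∈ W0, f ((x : B) ^ j) w ∈ W0 := by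
        intro j
        induction j with
        | zero => intro w hw; simpa using hw
        | succ j ih => intro w hw; rw [pow_succ', map_mul, MulAut.mul_apply]; exact hx' _ (ih w hw)
      obtain ⟨j, hj⟩ : ∃ j : ℕ, (x : B) ^ j = (x : B) ^ i := by
        refine ⟨(i % (p : ℤ)).toNat, ?_⟩
        rw [← zpow_natCast, Int.toNat_of_nonneg (Int.emod_nonneg _ (by exact_mod_cast hp.pos.ne'))]
        conv_rhs => rw [← Int.emod_add_mul_ediv i p]
        rw [zpow_add, zpow_mul, zpow_natCast, hxp, one_zpow, mul_one]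
      rw [← hj]
      exact hpow j w hw
    · refine hZne (Subgroup.eq_bot_iff_forall _ |>.2 fun z hz => Subtype.ext (MulEquiv.ext fun v => ?_))
      exact (h ▸ Subgroup.mem_top v : v ∈ W0) ⟨z, hz⟩
  -- the linearization
  have hzero : ∀ v : Additive V, t • v = 0 := fun v => Additive.toMul.injective (by simpa using hexp v.toMul)
  letI : Module (ZMod t) (Additive V) := AddCommGroup.zmodModule (n := t) hzero
  haveI : Module.Finite (ZMod t) (Additive V) := Module.Finite.of_finite
  have hdim : Module.finrank (ZMod t) (Additive V) = p := by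
    have h2 : Nat.card (Additive V) = Nat.card (ZMod t) ^ Module.finrank (ZMod t) (Additive V) :=
      Module.natCard_eq_pow_finrank
    rw [Nat.card_congr Additive.toMul, hcard, Nat.card_zmod] at h2
    exact (Nat.pow_right_injective (Fact.out : t.Prime).two_le h2).symm
  let add : MulAut V → (Additive V →+ Additive V) := fun φ =>
    { toFun := fun v => Additive.ofMul (φ v.toMul)
      map_zero' := by simp
      map_add' := fun v w => by simp }
  let lin : MulAut V →* Module.End (ZMod t) (Additive V) :=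
    { toFun := fun φ => (add φ).toZModLinearMap t
      map_one' := LinearMap.ext fun v => by simp [add]
      map_mul' := fun φ ψ => LinearMap.ext fun v => by simp [add] }
  have hlinv : ∀ φ (v : Additive V), lin φ v = Additive.ofMul (φ v.toMul) := fun _ _ => rfl
  let F := AlgebraicClosure (ZMod t)
  haveI : CharP F t := charP_of_injective_algebraMap (algebraMap (ZMod t) F).injective t
  let L := Module.End.baseChangeHom (ZMod t) F (Additive V)
  let ρ : Γ →* Module.End F (F ⊗[ZMod t] Additive V) :=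
    ((L : Module.End (ZMod t) (Additive V) →* _).comp lin).comp Γ.subtype
  have hsum : ∑ z : Z, ρ z = 0 := by
    have hs0 : ∑ z : Z, lin ((z : Γ) : MulAut V) = 0 := by
      refine LinearMap.ext fun v => ?_
      set s := (∑ z : Z, lin ((z : Γ) : MulAut V)) v with hs
      have hmem : s.toMul ∈ W0 := by
        intro u
        have h1 : lin ((u : Γ) : MulAut V) s = s := by
          rw [hs, ← Module.End.mul_apply, Finset.mul_sum]
          congr 1
          simp_rw [← map_mul, ← Subgroup.coe_mul]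
          exact Equiv.sum_comp (Equiv.mulLeft u) fun z : Z => lin ((z : Γ) : MulAut V)
        rw [hlinv] at h1
        exact congrArg Additive.toMul h1
      rw [hW0, Subgroup.mem_bot] at hmem
      exact Additive.toMul.injective hmem
    show ∑ z : Z, L (lin ((z : Γ) : MulAut V)) = 0
    rw [← map_sum, hs0, map_zero]
  have hZF : ((Fintype.card Z : ℕ) : F) ≠ 0 := by
    intro h
    have h1 := (CharP.cast_eq_zero_iff F t _).1 h
    refine hB (h1.trans ?_)
    rw [← Nat.card_eq_fintype_card]
    exact (Subgroup.card_subgroup_dvd_card Z).trans ((Subgroup.card_map_dvd K f).trans (Subgroup.card_subgroup_dvd_card K))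
  intro a b
  have h := comm_of_dim (W := F ⊗[ZMod t] Additive V) hp (by rw [Module.finrank_baseChange, hdim]) ρ Z le_rfl hZF
    hsum σ hσr hσZ (fun z _ => hfpf z) (L (lin (f x)))
    (by rw [← map_pow, ← map_pow, ← map_pow, hxp, map_one, map_one, map_one]) (fun g => by
      show L (lin (f x)) * L (lin (g : MulAut V)) = L (lin ((σ g : Γ) : MulAut V)) * L (lin (f x))
      rw [← map_mul, ← map_mul, ← map_mul, ← map_mul, hσapp, inv_mul_cancel_right]) a b
  rw [← map_mul, ← map_mul] at h
  have h1 : lin ((a * b : Γ) : MulAut V) = lin ((b * a : Γ) : MulAut V) := by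
    refine sub_eq_zero.1 (CfsgLib.ExtraFpf.baseChange_injective (F := ZMod t) (K := F) ?_)
    rw [map_sub, sub_eq_zero]
    exact h
  refine Subtype.ext (MulEquiv.ext fun v => ?_)
  have := LinearMap.congr_fun h1 (Additive.ofMul v)
  rw [hlinv, hlinv] at this
  exact Additive.ofMul.injective this

end CfsgLib.PrimeAction
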