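import Cfsg.Agent.S1545
import Cfsg.Agent.PrimeAction.CyclicFixed
import Cfsg.Agent.CoprimeAction.Frattini
import Cfsg.Agent.Components.Cores
import Cfsg.Agent.CoprimeAction.Basic
import Cfsg.Agent.S0033

/-!
Frobenius groups acting coprimely on nilpotent groups without fixed points of the kernel.
-/

set_option autoImplicit false
set_option linter.style.haveILetI false

namespace CfsgLib.PrimeAction

open scoped commutatorElement

/-- A Frobenius group on a nilpotent group: prime complement, order formula, and the cyclic case. -/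
theorem frobenius_on_nilpotent {X : Type*} [Group X] [Finite X] (K R M : Subgroup X) (hK1 : K ≠ ⊥) (hR1 : R ≠ ⊥) (hKR : K ⊓ R = ⊥)
    (hRK : R ≤ Subgroup.normalizer (K : Set X)) (hfrob : ∀ r ∈ R, r ≠ 1 → K ⊓ Subgroup.centralizer ({r} : Set X) = ⊥)
    (hM1 : M ≠ ⊥) (hMn : Group.IsNilpotent M) (hKM : K ≤ Subgroup.normalizer (M : Set X)) (hRM : R ≤ Subgroup.normalizer (M : Set X))
    (hcop : (Nat.card ↥(K ⊔ R)).Coprime (Nat.card M)) (hCK : M ⊓ Subgroup.centralizer (K : Set X) = ⊥)
    (hpr : ∀ x ∈ R, x ≠ 1 → M ⊓ Subgroup.centralizer ({x} : Set X) = M ⊓ Subgroup.centralizer (R : Set X)) :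
    (Nat.card R).Prime ∧ Nat.card M = Nat.card ↥(M ⊓ Subgroup.centralizer (R : Set X)) ^ Nat.card R ∧
      (IsCyclic ↥(M ⊓ Subgroup.centralizer (R : Set X)) → ⁅K, K⁆ ≤ Subgroup.centralizer (M : Set X)) := by
  classical
  haveI := hMn
  set CR := M ⊓ Subgroup.centralizer (R : Set X) with hCR
  have hsolM : Group.IsSolvable M := inferInstance
  have hdisj : M ⊓ (K ⊔ R) = ⊥ := Subgroup.inf_eq_bot_of_coprime hcop.symm
  have hle : ∀ R0 : Subgroup X, R0 ≤ R → (Nat.card M).Coprime (Nat.card ↥(K ⊔ R0)) := fun R0 h =>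
    (hcop.coprime_dvd_left (Subgroup.card_dvd_of_le (sup_le_sup_left h K))).symm
  have hform : ∀ R0 : Subgroup X, R0 ≤ R → R0 ≠ ⊥ →
      Nat.card M = Nat.card ↥(M ⊓ Subgroup.centralizer (R0 : Set X)) ^ Nat.card R0 := by
    intro R0 hR0 hR01
    have hn : K ⊔ R0 ≤ Subgroup.normalizer (M : Set X) := sup_le hKM (hR0.trans hRM)
    have h := Cfsg.Agent.S1545.result K R0 M hK1 hR01 (eq_bot_iff.2 ((inf_le_inf_left K hR0).trans hKR.le))
      (fun e he u hu => (Subgroup.le_normalizer_iff.1 hRK) e (hR0 he) u hu)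
      (fun e he he1 u hu hc => Subgroup.mem_bot.1 ((hfrob e (hR0 he) he1) ▸
        (⟨hu, Subgroup.mem_centralizer_singleton_iff.2 hc.symm⟩ : u ∈ K ⊓ Subgroup.centralizer ({e} : Set X))))
      (fun x hx m hm => (Subgroup.le_normalizer_iff.1 hn) x hx m hm)
      (eq_bot_iff.2 ((inf_le_inf_left M (sup_le_sup_left hR0 K)).trans hdisj.le)) hsolM (hle R0 hR0)
    have h1 : M ⊓ Subgroup.centralizer ((K ⊔ R0 : Subgroup X) : Set X) = ⊥ :=
      eq_bot_iff.2 ((inf_le_inf_left M (Subgroup.centralizer_le (le_sup_left : K ≤ K ⊔ R0))).trans hCK.le)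
    rw [h1, hCK, Subgroup.card_bot, one_pow, one_mul, mul_one] at h
    exact h
  have hcardM := hform R le_rfl hR1
  obtain ⟨p, hp, hpd⟩ := Nat.exists_prime_and_dvd (fun h => hR1 (Subgroup.card_eq_one.1 h))
  haveI := Fact.mk hp
  have hprime : (Nat.card R).Prime := by
    obtain ⟨x, hx⟩ := exists_prime_orderOf_dvd_card' (G := R) p hpd
    have hx1 : (x : X) ≠ 1 := fun h => hp.ne_one (by rw [← hx, ← Subgroup.orderOf_coe, h, orderOf_one])
    have h0 := hform (Subgroup.zpowers (x : X)) (Subgroup.zpowers_le.2 x.2) (fun h => hx1 (Subgroup.zpowers_eq_bot.1 h))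
    rw [Nat.card_zpowers, Subgroup.orderOf_coe, hx, Subgroup.zpowers_eq_closure, Subgroup.centralizer_closure,
      hpr x x.2 hx1, hcardM] at h0
    have h2 : 2 ≤ Nat.card CR := by
      by_contra hlt
      have : Nat.card CR = 1 := le_antisymm (by omega) Nat.card_pos
      rw [show Nat.card ↥(M ⊓ Subgroup.centralizer (R : Set X)) = 1 from this, one_pow] at hcardM
      exact hM1 (Subgroup.card_eq_one.1 hcardM)
    rwa [Nat.pow_right_injective h2 h0]
  refine ⟨hprime, hcardM, fun hcyc => ?_⟩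
  haveI := Fact.mk hprime
  set r := Nat.card R with hr
  -- the kernel is a nilpotent group of order prime to `r`
  obtain ⟨x, hx1⟩ : ∃ x : R, x ≠ 1 := by
    haveI : Nontrivial R := Finite.one_lt_card_iff_nontrivial.1 hprime.one_lt
    exact exists_ne 1
  let σ : MulAut K := K.normalizerMonoidHom ⟨x, hRK x.2⟩
  have hfix : ∀ k : K, σ k = k → k = 1 := fun k hk => Subtype.ext (Subgroup.mem_bot.1 ((hfrob x x.2 (fun h => hx1 (Subtype.ext h))) ▸
    (⟨k.2, Subgroup.mem_centralizer_singleton_iff.2 (mul_inv_eq_iff_eq_mul.1 (congrArg Subtype.val hk)).symm⟩ :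
      (k : X) ∈ K ⊓ Subgroup.centralizer ({(x : X)} : Set X))))
  have hσr : σ ^ r = 1 := by
    show (K.normalizerMonoidHom ⟨x, hRK x.2⟩) ^ r = 1
    rw [← map_pow]
    convert map_one K.normalizerMonoidHom
    exact Subtype.ext (show (x : X) ^ r = 1 by rw [← SubgroupClass.coe_pow, hr, pow_card_eq_one', OneMemClass.coe_one])
  have hKn : Group.IsNilpotent K := Cfsg.Agent.S0033.result σ hfix r hprime (orderOf_eq_prime hσr (fun h => hK1 ((Subgroup.eq_bot_iff_forall K).2 fun k hk => congrArg Subtype.val (hfix ⟨k, hk⟩ (by rw [h]; rfl)))))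
  have hKco : (Nat.card K).Coprime r := by
    rw [Nat.coprime_comm, hprime.coprime_iff_not_dvd]
    intro hd
    let P : Subgroup (MulAut K) := Subgroup.zpowers σ
    have hP : IsPGroup r P := fun y => by
      obtain ⟨i, hi⟩ := Subgroup.mem_zpowers_iff.1 y.2
      refine ⟨1, Subtype.ext ?_⟩
      rw [pow_one, Subgroup.coe_pow, ← hi, ← zpow_natCast, ← zpow_mul, mul_comm, zpow_mul, zpow_natCast, hσr, one_zpow]
      rfl
    have h1 : (1 : K) ∈ MulAction.fixedPoints P K := fun y => map_one (y : MulAut K)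
    obtain ⟨b, hb, hb1⟩ := hP.exists_fixed_point_of_prime_dvd_card_of_fixed_point K hd h1
    exact hb1 (hfix b (hb ⟨σ, Subgroup.mem_zpowers σ⟩)).symm
  -- the Sylow subgroups of `M`
  have hC : ∀ t : ℕ, t.Prime → ⁅K, K⁆ ≤ Subgroup.centralizer (((Cfsg.pCore t M).map M.subtype : Subgroup X) : Set X) := by
    intro t ht
    haveI := Fact.mk ht
    set T := (Cfsg.pCore t M).map M.subtype with hT
    have hTp : IsPGroup t T := (CfsgLib.Components.pCore_isPGroup (G := M) t).map _
    have hTM : T ≤ M := Subgroup.map_subtype_le _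
    haveI := CfsgLib.Components.pCore_characteristic (G := M) t
    have hNT : Subgroup.normalizer (M : Set X) ≤ Subgroup.normalizer (T : Set X) := by
      rw [Subgroup.le_normalizer_iff]
      rintro g hg _ ⟨w, hw, rfl⟩
      exact ⟨M.normalizerMonoidHom ⟨g, hg⟩ w,
        Subgroup.characteristic_iff_map_le.1 inferInstance (M.normalizerMonoidHom ⟨g, hg⟩) ⟨w, hw, rfl⟩, rfl⟩
    rcases eq_or_ne T ⊥ with hTb | hTb
    · rw [hTb]
      intro g _
      exact Subgroup.mem_centralizer_iff.2 fun y hy => by rw [Subgroup.mem_bot.1 hy, one_mul, mul_one]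
    have htM : t ∣ Nat.card M := by
      obtain ⟨a, ha⟩ := hTp.exists_card_eq
      rcases Nat.eq_zero_or_pos a with rfl | h0
      · exact absurd (Subgroup.card_eq_one.1 (by rw [ha, pow_zero])) hTb
      · exact ((dvd_pow_self t h0.ne').trans (dvd_of_eq ha.symm)).trans (Subgroup.card_dvd_of_le hTM)
    have htB : ¬ t ∣ Nat.card ↥(K ⊔ R) := fun hd => ht.ne_one (Nat.eq_one_of_dvd_coprimes hcop hd htM)
    have hBT : K ⊔ R ≤ Subgroup.normalizer (T : Set X) := (sup_le hKM hRM).trans hNT
    set Φ := frattini T with hΦ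
    set V := T ⧸ Φ with hV
    have hmap : ∀ σ : MulAut T, Φ.map σ.toMonoidHom = Φ := fun σ =>
      Subgroup.characteristic_iff_map_eq.1 inferInstance σ
    let q0 : MulAut T →* MulAut V :=
      { toFun := fun σ => QuotientGroup.congr Φ Φ σ (hmap σ)
        map_one' := MulEquiv.ext fun v => by
          obtain ⟨g, rfl⟩ := QuotientGroup.mk_surjective v
          rfl
        map_mul' := fun a b => MulEquiv.ext fun v => by
          obtain ⟨g, rfl⟩ := QuotientGroup.mk_surjective v
          rfl }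
    letI : CommGroup V := { (inferInstance : Group V) with
      mul_comm := fun a b => by
        obtain ⟨a, rfl⟩ := QuotientGroup.mk_surjective a
        obtain ⟨b, rfl⟩ := QuotientGroup.mk_surjective b
        rw [← QuotientGroup.mk_mul, ← QuotientGroup.mk_mul, QuotientGroup.eq,
          show (a * b)⁻¹ * (b * a) = ⁅b⁻¹, a⁻¹⁆ by rw [commutatorElement_def]; group]
        exact CfsgLib.CoprimeAction.commutator_le_frattini' hTp
          (Subgroup.commutator_mem_commutator (Subgroup.mem_top _) (Subgroup.mem_top _)) }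
    have hexp : ∀ v : V, v ^ t = 1 := fun v => by
      obtain ⟨a, rfl⟩ := QuotientGroup.mk_surjective v
      rw [← QuotientGroup.mk_pow, QuotientGroup.eq_one_iff]
      exact CfsgLib.CoprimeAction.pow_mem_frattini hTp a
    let f : ↥(K ⊔ R) →* MulAut V := (q0.comp T.normalizerMonoidHom).comp (Subgroup.inclusion hBT)
    have hfval : ∀ (b : ↥(K ⊔ R)) (k : T), f b (k : V) = ((T.normalizerMonoidHom ⟨b, hBT b.2⟩ k : T) : V) :=
      fun b k => rfl
    -- fixed points lift
    have hlift : ∀ S : Subgroup X, ∀ hS : S ≤ K ⊔ R, ∀ v ∈ CfsgLib.WielandtFP.fixS f (S.subgroupOf (K ⊔ R)),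
        ∃ k : T, (k : X) ∈ Subgroup.centralizer (S : Set X) ∧ (k : V) = v := by
      intro S hS v hv
      obtain ⟨k, rfl⟩ := QuotientGroup.mk_surjective v
      set Ψ := Φ.map T.subtype with hΨ
      have hΨp : IsPGroup t Ψ := hTp.to_le (Subgroup.map_subtype_le _)
      have hSΨ : S ≤ Subgroup.normalizer (Ψ : Set X) := by
        rw [Subgroup.le_normalizer_iff]
        rintro x hx _ ⟨w, hw, rfl⟩
        exact ⟨T.normalizerMonoidHom ⟨x, hBT (hS hx)⟩ w, hmap (T.normalizerMonoidHom ⟨x, hBT (hS hx)⟩) ▸ ⟨w, hw, rfl⟩, rfl⟩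
      obtain ⟨n, hn, hnk⟩ := CfsgLib.CoprimeAction.exists_mem_centralizer hSΨ
        ((hcop.coprime_dvd_left (Subgroup.card_dvd_of_le hS)).coprime_dvd_right
          (Subgroup.card_dvd_of_le ((Subgroup.map_subtype_le _).trans hTM)))
        (Or.inr (haveI := hΨp.isNilpotent; inferInstance)) (k := (k : X)) fun x hx => by
          have h := hv ⟨x, hS hx⟩ hx
          rw [hfval, eq_comm, QuotientGroup.eq] at h
          have h' : T.normalizerMonoidHom ⟨x, hBT (hS hx)⟩ k * k⁻¹ ∈ Φ := by
            rw [show T.normalizerMonoidHom ⟨x, hBT (hS hx)⟩ k * k⁻¹ =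
              k * (k⁻¹ * T.normalizerMonoidHom ⟨x, hBT (hS hx)⟩ k) * k⁻¹ by group]
            exact (inferInstance : Φ.Normal).conj_mem _ h k
          exact ⟨_, h', rfl⟩
      obtain ⟨w, hw, rfl⟩ := hn
      refine ⟨w * k, hnk, ?_⟩
      rw [QuotientGroup.mk_mul, (QuotientGroup.eq_one_iff w).2 hw, one_mul]
    set U := K.subgroupOf (K ⊔ R) with hU
    set E := R.subgroupOf (K ⊔ R) with hE
    haveI hUn : U.Normal := Subgroup.normal_subgroupOf_of_le_normalizer (sup_le Subgroup.le_normalizer hRK)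
    haveI : Group.IsNilpotent U :=
      Group.nilpotent_of_mulEquiv (Subgroup.subgroupOfEquivOfLe (le_sup_left : K ≤ K ⊔ R)).symm
    have hinf : U ⊓ E = ⊥ := by
      rw [eq_bot_iff]
      rintro u ⟨hu, hu'⟩
      exact Subgroup.mem_bot.2 (Subtype.ext (Subgroup.mem_bot.1 (hKR ▸ (⟨hu, hu'⟩ : (u : X) ∈ K ⊓ R))))
    have hsup : U ⊔ E = ⊤ := by
      rw [hU, hE, ← Subgroup.subgroupOf_sup le_sup_left le_sup_right, Subgroup.subgroupOf_self]
    have hfpf : ∀ e ∈ E, e ≠ 1 → ∀ u ∈ U, e * u = u * e → u = 1 := fun e he he1 u hu hc =>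
      Subtype.ext (Subgroup.mem_bot.1 ((hfrob e he (fun h => he1 (Subtype.ext h))) ▸
        (⟨hu, Subgroup.mem_centralizer_singleton_iff.2 (congrArg Subtype.val hc).symm⟩ :
          (u : X) ∈ K ⊓ Subgroup.centralizer ({(e : X)} : Set X))))
    have hcE : Nat.card E = r := Nat.card_congr (Subgroup.subgroupOfEquivOfLe (le_sup_right : R ≤ K ⊔ R)).toEquiv
    have hUfix : CfsgLib.WielandtFP.fixS f U = ⊥ := by
      rw [eq_bot_iff]
      intro v hv
      obtain ⟨k, hk, rfl⟩ := hlift K le_sup_left v hv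
      have h1 : (k : X) ∈ M ⊓ Subgroup.centralizer (K : Set X) := ⟨hTM k.2, hk⟩
      rw [hCK, Subgroup.mem_bot] at h1
      rw [show k = 1 from Subtype.ext h1]
      exact one_mem _
    have hEle : Nat.card (CfsgLib.WielandtFP.fixS f E) ∣ t := by
      haveI := hcyc
      let C0 : Subgroup T := (Subgroup.centralizer (R : Set X)).subgroupOf T
      haveI : IsCyclic C0 := isCyclic_of_injective
        (((T.subtype.comp C0.subtype).codRestrict CR fun k => ⟨hTM (k : T).2, k.2⟩))
        fun a b h => Subtype.ext (Subtype.ext (congrArg (fun c : CR => (c : X)) h))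
      have hsub : CfsgLib.WielandtFP.fixS f E ≤ C0.map (QuotientGroup.mk' Φ) := fun v hv => by
        obtain ⟨k, hk, rfl⟩ := hlift R le_sup_right v hv
        exact ⟨k, hk, rfl⟩
      haveI : IsCyclic (C0.map (QuotientGroup.mk' Φ)) :=
        isCyclic_of_surjective ((QuotientGroup.mk' Φ).subgroupMap C0) (MonoidHom.subgroupMap_surjective _ _)
      refine (Subgroup.card_dvd_of_le hsub).trans ?_
      rw [← IsCyclic.exponent_eq_card]
      exact Monoid.exponent_dvd_of_forall_pow_eq_one fun v => Subtype.ext (hexp v)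
    have hholds : ∀ W : Subgroup V, ∀ hW : (∀ b, ∀ w ∈ W, f b w ∈ W),
        Nat.card W = Nat.card ↥(W ⊓ CfsgLib.WielandtFP.fixS f E) ^ r := by
      intro W hW
      have h := CfsgLib.WielandtFP.holds_elementary (H := W) t (fun w => Subtype.ext (hexp w)) htB
        (CfsgLib.RankTwoAut.restrictHom f W hW) U E hinf hsup hfpf
      have hu : CfsgLib.WielandtFP.fixS (CfsgLib.RankTwoAut.restrictHom f W hW) U = ⊥ := by
        rw [eq_bot_iff]
        intro w hw
        exact Subgroup.mem_bot.2 (Subtype.ext (Subgroup.mem_bot.1 (hUfix ▸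
          (fun s hs => congrArg Subtype.val (hw s hs) : (w : V) ∈ CfsgLib.WielandtFP.fixS f U))))
      have ht' : CfsgLib.WielandtFP.fixS (CfsgLib.RankTwoAut.restrictHom f W hW) ⊤ = ⊥ :=
        eq_bot_iff.2 (le_trans (show _ ≤ CfsgLib.WielandtFP.fixS (CfsgLib.RankTwoAut.restrictHom f W hW) U from
          fun w hw s _ => hw s (Subgroup.mem_top s)) hu.le)
      rw [CfsgLib.WielandtFP.Holds, hu, ht', Subgroup.card_bot, one_pow, one_mul, mul_one, hcE] at h
      rw [h]
      congr 1
      exact Nat.card_congr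
        { toFun := fun w => ⟨(w : W), (w : W).2, fun s hs => congrArg Subtype.val (w.2 s hs)⟩
          invFun := fun v => ⟨⟨v, v.2.1⟩, fun s hs => Subtype.ext (v.2.2 s hs)⟩
          left_inv := fun _ => rfl
          right_inv := fun _ => rfl }
    have hker : ⁅U, U⁆ ≤ f.ker := by
      rcases (Nat.dvd_prime ht).1 hEle with h1 | h1
      · have h := hholds ⊤ (fun _ _ _ => trivial)
        rw [top_inf_eq, h1, one_pow, Subgroup.card_top] at h
        haveI := (Nat.card_eq_one_iff_unique.1 h).1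
        intro b _
        exact MonoidHom.mem_ker.2 (MulEquiv.ext fun v => Subsingleton.elim _ _)
      · have hcard := hholds ⊤ (fun _ _ _ => trivial)
        rw [top_inf_eq, h1, Subgroup.card_top] at hcard
        refine CfsgLib.PrimeAction.commutator_le_ker hprime ?_ hexp hcard htB f U E hcE
          (by rw [Nat.card_congr (Subgroup.subgroupOfEquivOfLe (le_sup_left : K ≤ K ⊔ R)).toEquiv]; exact hKco)
          ?_ hsup ?_
        · exact fun e => htB (e ▸ Subgroup.card_dvd_of_le (le_sup_right : R ≤ K ⊔ R))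
        · rw [eq_bot_iff]
          rintro u ⟨hu, hu'⟩
          exact Subgroup.mem_bot.2 (hfpf ⟨x, Subgroup.mem_sup_right x.2⟩ x.2
            (fun h => hx1 (Subtype.ext (congrArg (fun c : ↥(K ⊔ R) => (c : X)) h))) u hu (Subgroup.mem_centralizer_iff.1 hu' _ x.2))
        · intro W hW
          have h := hholds W hW
          have hd := (Subgroup.card_dvd_of_le (inf_le_right : W ⊓ CfsgLib.WielandtFP.fixS f E ≤ _)).trans hEle
          rcases (Nat.dvd_prime ht).1 hd with h2 | h2
          · rw [h2, one_pow] at h; exact Or.inl (Subgroup.card_eq_one.1 h)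
          · rw [h2] at h; exact Or.inr (Subgroup.eq_top_of_card_eq W (h.trans hcard.symm))
    refine CfsgLib.CoprimeAction.le_centralizer_of_frattini ?_ ?_
    · refine (hcop.coprime_dvd_left (Subgroup.card_dvd_of_le ?_)).coprime_dvd_right
        ((Subgroup.card_subgroup_dvd_card _).trans (Subgroup.card_dvd_of_le hTM))
      exact (Subgroup.commutator_le_self K).trans le_sup_left
    · intro g hg k hk
      have hgK : g ∈ K := Subgroup.commutator_le_self K hg
      have hgB : g ∈ K ⊔ R := Subgroup.mem_sup_left hgK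
      have hmem : (⟨g, hgB⟩ : ↥(K ⊔ R)) ∈ f.ker := hker (by
        have h := Subgroup.map_commutator U U (K ⊔ R).subtype
        rw [hU, Subgroup.map_subgroupOf_eq_of_le le_sup_left] at h
        obtain ⟨u, hu, hut⟩ := h.symm ▸ hg
        exact (show u = ⟨g, hgB⟩ from Subtype.ext hut) ▸ hu)
      have h2 := DFunLike.congr_fun (MonoidHom.mem_ker.1 hmem) ((⟨k, hk⟩ : T) : V)
      rw [hfval, MulAut.one_apply, eq_comm, QuotientGroup.eq] at h2
      set u := T.normalizerMonoidHom ⟨g, hBT hgB⟩ ⟨k, hk⟩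
      have h' : u * (⟨k, hk⟩ : T)⁻¹ ∈ Φ := by
        rw [show u * (⟨k, hk⟩ : T)⁻¹ = ⟨k, hk⟩ * ((⟨k, hk⟩ : T)⁻¹ * u) * (⟨k, hk⟩ : T)⁻¹ by group]
        exact (inferInstance : Φ.Normal).conj_mem _ h2 _
      exact ⟨_, h', rfl⟩
  intro g hg
  have hgN : ∀ m ∈ M, g * m * g⁻¹ ∈ M :=
    (Subgroup.le_normalizer_iff.1 hKM) g (Subgroup.commutator_le_self K hg)
  have hMle : M ≤ Subgroup.centralizer ({g} : Set X) := by
    rw [← Subgroup.relIndex_eq_one]
    refine Nat.eq_one_iff_not_exists_prime_dvd.2 fun t ht htd => ?_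
    haveI := Fact.mk ht
    let P : Sylow t M := default
    have hP : (P : Subgroup M) ≤ Cfsg.pCore t M := CfsgLib.Components.le_pCore inferInstance P.isPGroup'
    have hPC : (P : Subgroup M).map M.subtype ≤ Subgroup.centralizer ({g} : Set X) := by
      rintro _ ⟨m, hm, rfl⟩
      exact Subgroup.mem_centralizer_singleton_iff.2
        (Subgroup.mem_centralizer_iff.1 (hC t ht hg) _ ⟨m, hP hm, rfl⟩)
    refine P.not_dvd_index (htd.trans ?_)
    have h := Subgroup.relIndex_dvd_of_le_left M hPC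
    rwa [Subgroup.relIndex, Subgroup.relIndex, Subgroup.subgroupOf, Subgroup.subgroupOf,
      Subgroup.comap_map_eq_self_of_injective M.subtype_injective] at h
  exact Subgroup.mem_centralizer_iff.2 fun m hm => Subgroup.mem_centralizer_singleton_iff.1 (hMle hm)

end CfsgLib.PrimeAction
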